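import Mathlib
import Cfsg.Agent.H401.SixUq
import Cfsg.Agent.H401.SixLast
import Cfsg.Agent.H65.SixBoth
import Cfsg.Agent.H288.E6.C6Full
import Cfsg.Agent.H905.SixC.CrTy
import Cfsg.Agent.H906.E6.SixC

/-!
# S5927, S5928: `sixc_two` from the boxes (helper905)
-/

set_option autoImplicit false

namespace Cfsg.Agent.H905.SixC

open Cfsg Cfsg.Lie Module Equiv
open Cfsg.Agent.ChevalleyStructure.E6Min.Tables Cfsg.Agent.ChevalleyStructure.E6Min.Basic
  Cfsg.Agent.ChevalleyStructure.E6Min.Adjoint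
open Cfsg.Agent.H952.F4 (ev es matRep sh cr tf MaxAlt)
open Cfsg.Agent.H163.E6 Cfsg.Agent.H163.E6.SixC
open Cfsg.Agent.H958.SixC

universe u

theorem sixc_two' {F : Type u} [Field F] [Finite F] [CharP F 2] {H : Subgroup ↥(chevE6.group F)}
    {φ : ↥(alternatingGroup (Fin 6)) →* ↥(chevE6.group F)} (hS : Sit H 6 φ)
    (hs : (Nat.card ↥H = 360 ∧ H163.E6.Small H) ∨ (∃ h ∈ H, h ∉ φ.range) ∨ ∃ q, Twist q φ ∧ Semi q φ) {ω : Fˣ}
    (hω : Cover φ ω) : False := by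
  rcases hs with ⟨hcard, hsm⟩ | hs
  · -- `H` is the alternating group
    have hH : H = φ.range := by
      symm
      have hfin : Finite ↥H := Nat.finite_of_card_ne_zero (by rw [hcard]; norm_num)
      apply Subgroup.eq_of_le_of_card_ge hS.le
      rw [hcard, ← Nat.card_congr (MonoidHom.ofInjective hS.inj).toEquiv, nat_card_alternatingGroup, Nat.card_eq_fintype_card,
        Fintype.card_fin]
      decide
    obtain ⟨ρ, hρ, W, hW, h3⟩ := H906.E6.SixC.exists_three hS.inj hω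
    have h4 := hsm ρ hρ W (by rw [hH]; exact hW) (by omega)
    omega
  · obtain ⟨ζ, z, g₁, g₂, β, t, a, hF, hζ, hz, h1, h2⟩ := exists_full hS.inj hω
    have c1 : ∀ {ρ ρ' : Representation F ↥(Zgrp F) (I27 → F)}, Pr ρ ρ' → ∀ {W : Submodule F (I27 → F)},
        Ty φ ρ z g₁ W → Ty φ ρ' z g₂ (crs W W) := fun hp _ h => cr_ty hS hω hF hζ hp h
    have c2 : ∀ {ρ ρ' : Representation F ↥(Zgrp F) (I27 → F)}, Pr ρ ρ' → ∀ {W : Submodule F (I27 → F)},
        Ty φ ρ z g₂ W → Ty φ ρ' z g₁ (crs W W) := fun hp _ h => cr_ty hS hω hF.symm hζ hp h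
    obtain ⟨hW₁, hW₂, hS₁, hS₂, he, he'⟩ := both_of hS hω hF hζ c1 c2 hs hz h1 h2
    exact H401.SixLast.last (boxR_all F _) hS hω hF hζ c1 c2 hW₁ hW₂ hS₁ hS₂ he he'

end Cfsg.Agent.H905.SixC
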